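import Mathlib

/-!
# Data of a coset enumeration
-/

set_option autoImplicit false

namespace Cfsg.Agent.Lib.KnownSimple.MultM.L216J

/-- Generated data. -/
def par1 : ℕ := 0xaa98665543221100
/-- Generated data. -/
def gix1 : ℕ := 0x9944a948
/-- Generated data. -/
def dp1 : ℕ := 0xb6d9248db488
/-- Generated data. -/
def fa1 : ℕ := 0xfedccbba9986543321ffaeeadd9c8b66547854324211000
/-- Generated data. -/
def fl1 : ℕ := 0x808204040800004000040808100001010008100020008200041010004163040010204000810008080
/-- Generated data. -/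
def fb1 : ℕ := 0xaa9e86e65c53221410fffcbeddd9cbba944887653432100
/-- Generated data. -/
def fk1 : ℕ := 0x434433223224433224860a50b805090004c700005000011
/-- Generated data. -/
def po1 : ℕ := 0x1bb6ecd7ab4e8cf9b2e4c78b0e0bf7aed4972dfbc78c13a74890d9b366cc8c060c18306000000000000
/-- Generated data. -/
def pc1 : ℕ := 0x111111111111111111990c30c903090002d900003000000
/-- Generated data. -/
def pa1 : ℕ := 0x34ba8ca483079c99440e288306134bf3917972bb5d1e40c6cd45fd6e79031b28f769ae89ae7a1a1c55750e2db28f769a1c38b6ca3dda6451d8102040c52518584922861021473d559438b50e1840451cf54a189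
/-- Generated data. -/
def can1 : ℕ := 0xfedcba986543210
/-- Generated data. -/
def tb1_0 : ℕ := 0xeac8d6b59734120
/-- Generated data. -/
def fi1_0 : ℕ := 0x1b6164e89e590f2867de0c0
/-- Generated data. -/
def tb1_1 : ℕ := 0xe9c76d5ba821430
/-- Generated data. -/
def fi1_1 : ℕ := 0x1cb55aa95e64903a1805101
/-- Generated data. -/
def tb1_2 : ℕ := 0x9b8daec73246501
/-- Generated data. -/
def fi1_2 : ℕ := 0x2e66cad16942e388d207742

end Cfsg.Agent.Lib.KnownSimple.MultM.L216J
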