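import Cfsg.Prelude.Def_SporCoxeter

/-!
# A presentation on involutions
-/

set_option autoImplicit false

namespace Cfsg.Agent.Lib.KnownSimple.MultM.L216J

open Cfsg.Spor

/-- The generators. -/
inductive Gen
  | a
  | b
  | c
  | d
  deriving DecidableEq

/-- A generator as a word. -/ abbrev wa : FreeGroup Gen := FreeGroup.of Gen.a
/-- A generator as a word. -/ abbrev wb : FreeGroup Gen := FreeGroup.of Gen.b
/-- A generator as a word. -/ abbrev wc : FreeGroup Gen := FreeGroup.of Gen.c
/-- A generator as a word. -/ abbrev wd : FreeGroup Gen := FreeGroup.of Gen.d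

/-- The graph of the presentation. -/
def edges : List (Gen × ℕ × Gen) :=
  [(.a, 5, .c), (.a, 17, .d), (.b, 5, .c), (.b, 17, .d), (.c, 3, .d)]

/-- The further relators. -/
def extra : List (FreeGroup Gen) := [
  wa * wb * wc * wa * wc * wa * wc * wa * wc * wa * wc * wb, 
  wa * wb * wc * wa * wc * wb * wc * wb * wc * wb * wc * wa * wc, 
  wa * wb * wc * wb * wc * wa * wc * wa * wc * wa * wc * wb * wc, 
  wa * wb * wc * wd * wb * wc * wd * wc * wd * wb * wa * wd * wa * wd, 
  wa * wb * wc * wd * wc * wa * wd * wa * wd * wc * wb * wc * wb * wd, 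
  wa * wb * wa * wc * wd * wc * wa * wc * wa * wd * wb * wc * wd * wc * wa * wc * wa * wd, 
  wa * wb * wd * wa * wc * wa * wc * wd * wc * wd * wa * wc * wa * wc * wd * wc * wa * wd, 
  wa * wc * wb * wd * wa * wd * wa * wd * wc * wb * wc * wd * wc * wa * wc * wd * wa * wd, 
  wa * wb * wc * wb * wc * wd * wc * wa * wd * wa * wd * wb * wd * wc * wa * wc * wd * wc, 
  wa * wd * wb * wc * wd * wc * wb * wc * wd * wa * wd * wb * wc * wd * wc * wb * wc * wd, 
  wa * wb * wc * wd * wb * wd * wc * wb * wc * wd * wc * wa * wb * wd * wb * wc * wb * wc, 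
  wa * wc * wd * wb * wd * wb * wc * wd * wc * wa * wd * wb * wd * wc * wb * wd * wa * wd, 
  wa * wb * wc * wd * wb * wc * wd * wb * wc * wb * wc * wd * wc * wb * wd * wc * wb * wc, 
  wa * wb * wd * wa * wd * wc * wb * wc * wd * wb * wc * wd * wc * wb * wc * wb * wc * wd, 
  wa * wb * wc * wa * wc * wa * wd * wa * wd * wc * wa * wc * wd * wa * wc * wd * wa * wd ]

/-- The presented group. -/
abbrev PJ : Type := CoxPresented Gen edges extra

end Cfsg.Agent.Lib.KnownSimple.MultM.L216J
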