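import Cfsg.Agent.Lib.KnownSimple.MultM.L216J.Def1

/-!
# A coset enumeration: the facts
-/

set_option autoImplicit false

namespace Cfsg.Agent.Lib.KnownSimple.MultM.L216J

open Cfsg Cfsg.Spor Cfsg.Agent.Lib.Compute Cfsg.Agent.Lib.KnownSimple.PE Cfsg.Agent.Lib.KnownSimple.Leech
open Cfsg.Agent.Lib.KnownSimple Cfsg.Agent.Lib.KnownSimple.AutRigid Cfsg.Agent.Lib.KnownSimple.Pres

set_option maxHeartbeats 0 in
set_option maxRecDepth 100000 in
theorem fc1_0 : chunk (padB K1 (Cert.factOK C1)) 2584 0 = true := by decide +kernel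

end Cfsg.Agent.Lib.KnownSimple.MultM.L216J
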